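import Cfsg.Agent.H521.SN.SpFour
import Cfsg.Agent.LieClassical.SUBasic
import Cfsg.Agent.Lib.FieldFour

/-!
# S3831, the base `U₄(2)`: `LrU2 4` (helper521, task 4462)

The cubes of the elements of order 9 of `Sp₄(3)` are transvections; `Y³ = ω R` with a reflection `R` for a monomial
element `Y` of order 9 of `SU₄(2)`.
-/

set_option autoImplicit false
set_option linter.unusedSectionVars false

namespace Cfsg.Agent.H521.SN.UFour

open Subgroup Cfsg Matrix Cfsg.Agent.H459.Rad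
  Cfsg.Agent.H459.Iface Cfsg.Agent.H839.Rad Cfsg.Agent.H21.SN
open Cfsg.Agent.H959.Rad3 (Inv inv_of_ps)
open Cfsg.Agent.H855.Rad3.SpFour
open Cfsg.Agent.H521.SN.SpFour

/-! ### cubes of elements of order nine -/

theorem tableC : ∀ p a b c : ZMod 3, uM p a b c * (uM p a b c * uM p a b c) ≠ 1 →
    ∃ j : Fin 4, tv (uM p a b c * (uM p a b c * uM p a b c)) j := by
  decide +kernel

theorem cube_nine {A : Sp} (hA : A ^ 9 = 1) (hA3 : A ^ 3 ≠ 1) :
    ∃ h : Sp, h * A ^ 3 * h⁻¹ = T ∨ h * A ^ 3 * h⁻¹ = T * T := by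
  obtain ⟨g, hg⟩ := conj_mem' (k := 2) hA
  obtain ⟨B, hB⟩ : ∃ B, B = g * A * g⁻¹ := ⟨_, rfl⟩
  rw [← hB] at hg
  have hB3' : B ^ 3 = g * A ^ 3 * g⁻¹ := by rw [hB, conj_pow]
  have hB3 : B.1 * (B.1 * B.1) ≠ 1 := by
    intro h
    have h1 : B ^ 3 = 1 := by
      rw [p3]
      exact Subtype.ext h
    rw [hB3'] at h1
    exact hA3 (conj_eq_one_iff.1 h1)
  obtain ⟨p, a, b, c, h⟩ := mem_U.1 hg
  have h1 : ∃ j : Fin 4, tv (B.1 * (B.1 * B.1)) j := by
    rw [h] at hB3 ⊢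
    exact tableC p a b c hB3
  obtain ⟨j, h1⟩ := h1
  refine ⟨(gS j)⁻¹ * g, ?_⟩
  have e : ∀ V : Sp, (B * (B * B)) * gS j = gS j * V → (gS j)⁻¹ * g * A ^ 3 * ((gS j)⁻¹ * g)⁻¹ = V := by
    intro V hV
    rw [← p3 B, hB3'] at hV
    calc (gS j)⁻¹ * g * A ^ 3 * ((gS j)⁻¹ * g)⁻¹ = (gS j)⁻¹ * ((g * A ^ 3 * g⁻¹) * gS j) := by group
      _ = (gS j)⁻¹ * (gS j * V) := by rw [hV]
      _ = V := by group
  rcases h1 with h1 | h1
  · exact Or.inl (e T (Subtype.ext h1))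
  · exact Or.inr (e (T * T) (Subtype.ext h1))

/-- the elements of order nine of `PSp₄(3)` -/
theorem cube_pj {y : PG} (h9 : y ^ 9 = 1) (h3 : y ^ 3 ≠ 1) :
    ∃ k : PG, k * y ^ 3 * k⁻¹ = pj T ∨ k * y ^ 3 * k⁻¹ = pj T * pj T := by
  have key : ∀ A : Sp, A ^ 9 = 1 → y = pj A → ∃ k : PG, k * y ^ 3 * k⁻¹ = pj T ∨ k * y ^ 3 * k⁻¹ = pj T * pj T := by
    rintro A hA rfl
    obtain ⟨h, hh⟩ := cube_nine hA (by
      intro h
      apply h3
      rw [← map_pow, h, map_one])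
    refine ⟨pj h, ?_⟩
    rw [← map_pow, ← map_inv, ← map_mul, ← map_mul, ← map_mul]
    rcases hh with hh | hh
    · exact Or.inl (by rw [hh])
    · exact Or.inr (by rw [hh])
  obtain ⟨A, hA⟩ := pj_surjective y
  have h4 : pj (A ^ 9) = 1 := by rw [map_pow, hA, h9]
  rcases pj_eq_one.1 h4 with h4 | h4
  · exact key A (Subtype.ext h4) hA.symm
  · refine key (n * A) ?_ (by rw [map_mul pj, pj_n, one_mul, hA])
    rw [(show Commute n A from n_comm A).mul_pow, n_pow (by decide)]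
    apply Subtype.ext
    rw [n_mul, h4]
    simp

/-! ### the unitary side -/

section Uni

open Cfsg.Agent.LieClassical.SUBasic

variable {F : Type} [Field F]

abbrev mat (g : ↥(SU 4 F 2)) : Matrix (Fin 4) (Fin 4) F := ((g : Matrix.SpecialLinearGroup (Fin 4) F) : Matrix (Fin 4) (Fin 4) F)

theorem mat_mul (g h : ↥(SU 4 F 2)) : mat (g * h) = mat g * mat h := rfl

theorem mat_inj {g h : ↥(SU 4 F 2)} (e : mat g = mat h) : g = h := Subtype.ext (Subtype.ext e)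

/-- the element of `GU_4(2)` proportional to `Z` -/
theorem exists_gu {Z : ↥(SU 4 F 2)} {d : F} (hd : d ^ 3 = 1) {v w : Fin 4 → F}
    (hZ : mat Z = d • (1 + vecMulVec v w)) :
    ∃ (A : ↥(GU 4 F 2)) (v w : Fin 4 → F),
        ((A : Matrix.GeneralLinearGroup (Fin 4) F) : Matrix (Fin 4) (Fin 4) F) = 1 + vecMulVec v w ∧
          ∀ (g h : ↥(SU 4 F 2)),
            ((h : Matrix.SpecialLinearGroup (Fin 4) F) : Matrix (Fin 4) (Fin 4) F) *
                ((A : Matrix.GeneralLinearGroup (Fin 4) F) : Matrix (Fin 4) (Fin 4) F) =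
              ((A : Matrix.GeneralLinearGroup (Fin 4) F) : Matrix (Fin 4) (Fin 4) F) *
                ((g : Matrix.SpecialLinearGroup (Fin 4) F) : Matrix (Fin 4) (Fin 4) F) →
            MulAut.conj (QuotientGroup.mk Z : PSU 4 F 2) (QuotientGroup.mk g) = QuotientGroup.mk h := by
  have hd0 : d ≠ 0 := by
    rintro rfl
    simp at hd
  have hdd : d * d⁻¹ = 1 := mul_inv_cancel₀ hd0
  have hdd' : d⁻¹ * d = 1 := inv_mul_cancel₀ hd0
  have hAe : (1 + vecMulVec v w : Matrix (Fin 4) (Fin 4) F) = d⁻¹ • mat Z := by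
    rw [hZ, smul_smul, hdd', one_smul]
  have h1 : mat Z * mat Z⁻¹ = 1 := by rw [← mat_mul, mul_inv_cancel]; rfl
  have h2 : mat Z⁻¹ * mat Z = 1 := by rw [← mat_mul, inv_mul_cancel]; rfl
  let B : Matrix.GeneralLinearGroup (Fin 4) F := ⟨d⁻¹ • mat Z, d • mat Z⁻¹, by
    rw [smul_mul_smul_comm, h1, hdd', one_smul], by
    rw [smul_mul_smul_comm, h2, hdd, one_smul]⟩
  have hB : B ∈ GU 4 F 2 := by
    show ∀ u v, hermForm 4 F 2 ((d⁻¹ • mat Z) *ᵥ u) ((d⁻¹ • mat Z) *ᵥ v) = hermForm 4 F 2 u v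
    intro u v
    have h3 := (mem_SU_iff (Z : Matrix.SpecialLinearGroup (Fin 4) F)).1 Z.2 u v
    rw [← h3]
    rw [smul_mulVec, smul_mulVec]
    simp only [hermForm, Pi.smul_apply, smul_eq_mul, mul_pow]
    refine Finset.sum_congr rfl fun i _ => ?_
    have h4 : d⁻¹ * d⁻¹ ^ 2 = 1 := by
      rw [← pow_succ', inv_pow, hd, inv_one]
    calc d⁻¹ * (mat Z *ᵥ u) i * (d⁻¹ ^ 2 * (mat Z *ᵥ v) i ^ 2)
        = (d⁻¹ * d⁻¹ ^ 2) * ((mat Z *ᵥ u) i * (mat Z *ᵥ v) i ^ 2) := by ring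
      _ = _ := by rw [h4, one_mul]
  refine ⟨⟨B, hB⟩, v, w, hAe.symm, ?_⟩
  intro g h hgh
  have h3 : mat h * (d⁻¹ • mat Z) = (d⁻¹ • mat Z) * mat g := hgh
  rw [mul_smul_comm, smul_mul_assoc] at h3
  have h4 : mat h * mat Z = mat Z * mat g := by
    have := congrArg (fun M => d • M) h3
    simpa only [smul_smul, hdd, one_smul] using this
  have h5 : h * Z = Z * g := mat_inj h4
  rw [MulAut.conj_apply]
  have h6 : h = Z * g * Z⁻¹ := eq_mul_inv_of_mul_eq h5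
  rw [h6]
  rfl

/-- conjugates -/
theorem mat_conj {D K : ↥(SU 4 F 2)} {d : F} {v w : Fin 4 → F} (hD : mat D = d • (1 + vecMulVec v w)) :
    mat (K * D * K⁻¹) = d • (1 + vecMulVec (mat K *ᵥ v) (w ᵥ* mat K⁻¹)) := by
  rw [mat_mul, mat_mul, hD, mul_smul_comm, smul_mul_assoc, mul_add, add_mul, mul_one, mul_vecMulVec, vecMulVec_mul,
    ← mat_mul K, mul_inv_cancel]
  rfl

/-- the 3-cycle -/
def cyc : Equiv.Perm (Fin 4) := Equiv.swap 0 2 * Equiv.swap 0 1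

theorem sign_cyc : Equiv.Perm.sign cyc = 1 := by decide

theorem cyc_val : cyc 0 = 1 ∧ cyc 1 = 2 ∧ cyc 2 = 0 ∧ cyc 3 = 3 := by decide

section

variable {c : F} (hc : c ^ 3 = 1)

include hc

theorem norm_aux : ∀ i, (![c, 1, 1, c ^ 2] : Fin 4 → F) i ^ (2 + 1) = 1 := by
  intro i
  fin_cases i
  · exact hc
  · simp
  · simp
  · show (c ^ 2) ^ 3 = 1
    rw [← pow_mul, mul_comm, pow_mul, hc, one_pow]

theorem prod_aux : ∏ i, (![c, 1, 1, c ^ 2] : Fin 4 → F) i = 1 := by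
  rw [Fin.prod_univ_four]
  show c * 1 * 1 * c ^ 2 = 1
  rw [mul_one, mul_one, ← pow_succ', hc]

/-- the monomial element of order nine -/
noncomputable def Y : ↥(SU 4 F 2) := suDiag 2 ![c, 1, 1, c ^ 2] (prod_aux hc) (norm_aux hc) * suPerm 2 cyc sign_cyc

theorem mat_Y : mat (Y hc) = !![0, c, 0, 0; 0, 0, 1, 0; 1, 0, 0, 0; 0, 0, 0, c ^ 2] := by
  show Matrix.diagonal _ * cyc.permMatrix F = _
  ext i j
  fin_cases i <;> fin_cases j <;>
    simp [Matrix.mul_apply, Fin.sum_univ_four, Matrix.diagonal_apply, PEquiv.toMatrix_apply, cyc, Equiv.swap_apply_def]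

theorem mat_Y3 : mat (Y hc ^ 3) = Matrix.diagonal ![c, c, c, 1] := by
  have e : Y hc ^ 3 = Y hc * (Y hc * Y hc) := by rw [pow_succ, pow_two, mul_assoc]
  rw [e, mat_mul, mat_mul, mat_Y]
  have h6 : c ^ 2 * (c ^ 2 * c ^ 2) = 1 := by
    calc c ^ 2 * (c ^ 2 * c ^ 2) = (c ^ 3) ^ 2 := by ring
      _ = 1 := by rw [hc, one_pow]
  ext i j
  fin_cases i <;> fin_cases j <;> simp [Matrix.mul_apply, Fin.sum_univ_four, h6]

theorem hc2 : (c ^ 2) ^ 3 = 1 := by rw [← pow_mul, mul_comm, pow_mul, hc, one_pow]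

theorem Y3_inv : (Y hc ^ 3)⁻¹ = Y (hc2 hc) ^ 3 := by
  refine inv_eq_of_mul_eq_one_right (mat_inj ?_)
  rw [mat_mul, mat_Y3, mat_Y3, Matrix.diagonal_mul_diagonal]
  show _ = (1 : Matrix (Fin 4) (Fin 4) F)
  rw [← Matrix.diagonal_one]
  congr 1
  have h3 : c * c ^ 2 = 1 := by rw [← pow_succ', hc]
  funext i
  fin_cases i <;> simp [h3]

theorem Y_nine : Y hc ^ 9 = 1 := by
  have e : Y hc ^ 9 = (Y hc ^ 3) * ((Y hc ^ 3) * (Y hc ^ 3)) := by rw [← pow_add, ← pow_add]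
  rw [e]
  refine mat_inj ?_
  rw [mat_mul, mat_mul, mat_Y3, Matrix.diagonal_mul_diagonal, Matrix.diagonal_mul_diagonal]
  show _ = (1 : Matrix (Fin 4) (Fin 4) F)
  rw [← Matrix.diagonal_one]
  congr 1
  have h3 : c * (c * c) = 1 := by rw [← hc]; ring
  funext i
  fin_cases i <;> simp [h3]

theorem mat_Y3' (h1 : c * (1 + c) = 1) :
    mat (Y hc ^ 3) = c • (1 + vecMulVec (Pi.single (3 : Fin 4) c) (Pi.single (3 : Fin 4) 1)) := by
  rw [mat_Y3]
  ext i j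
  fin_cases i <;> fin_cases j <;> simp [Matrix.diagonal_apply, vecMulVec_apply, Matrix.one_apply, h1]

end

theorem exists_c [Fintype F] (hF : Fintype.card F = 4) : ∃ c : F, c ^ 3 = 1 ∧ c ≠ 1 ∧ c * (1 + c) = 1 ∧
    c ^ 2 * (1 + c ^ 2) = 1 := by
  let σ := Cfsg.Agent.Lib.FieldFour.equivOfCard hF
  refine ⟨σ.symm .w, ?_, ?_, ?_, ?_⟩
  · rw [← map_pow, ← map_one σ.symm]
    congr 1
  · intro h
    have h1 := congrArg σ h
    rw [RingEquiv.apply_symm_apply, map_one] at h1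
    revert h1
    decide
  · rw [← map_one σ.symm, ← map_add, ← map_mul]
    congr 1
  · rw [← map_one σ.symm, ← map_pow, ← map_add, ← map_mul]
    congr 1

end Uni

theorem lrU2_four : LrU2 4 := by
  intro F _ _ hF x hx hP _
  have hF4 : Fintype.card F = 4 := by rw [hF]; norm_num
  obtain ⟨e⟩ := Cfsg.Agent.S0822.result (F := F) (K := ZMod 3) hF4 (by rw [ZMod.card])
  have hfin : Finite (PSU 4 F 2) := Finite.of_equiv _ e.symm.toEquiv
  have h1 : orderOf (H459.Rad.tr e x) = 3 := by rw [orderOf_tr, hx]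
  obtain ⟨A, h, hA, hh⟩ := exists_T h1 (inv_of_ps le_rfl (hP.tr e))
  obtain ⟨c, hc, hc1, hcc, hcc2⟩ := exists_c hF4
  -- `x` is inner
  have hxz : x = MulAut.conj (e.symm (pj A)) := by
    ext k
    apply e.injective
    have h2 : H459.Rad.tr e x (e k) = e (x k) := by rw [tr_apply, MulEquiv.symm_apply_apply]
    rw [← h2, hA, MulAut.conj_apply, MulAut.conj_apply, map_mul, map_mul, map_inv, MulEquiv.apply_symm_apply]
  -- the element of order nine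
  set y0 : PSU 4 F 2 := QuotientGroup.mk (Y hc) with hy0
  have hy9 : e y0 ^ 9 = 1 := by
    rw [← map_pow, hy0, ← QuotientGroup.mk_pow, Y_nine]
    exact map_one e
  have hy3 : e y0 ^ 3 ≠ 1 := by
    rw [← map_pow, hy0, ← QuotientGroup.mk_pow]
    intro h
    have h2 : (QuotientGroup.mk (Y hc ^ 3) : PSU 4 F 2) = 1 := e.injective (h.trans (map_one e).symm)
    rw [QuotientGroup.eq_one_iff] at h2
    obtain ⟨d, hd, hd', h3⟩ := (Cfsg.Agent.LieClassical.SUBasic.mem_center_SU_iff hF (by norm_num) _).1 h2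
    have h4 := congrArg mat h3
    rw [mat_Y3] at h4
    have h5 : Matrix.diagonal ![c, c, c, 1] = Matrix.diagonal (fun _ : Fin 4 => d) := h4
    have h6 := congrFun (congrFun h5 0) 0
    have h7 := congrFun (congrFun h5 3) 3
    simp at h6 h7
    exact hc1 (h6.trans h7.symm)
  obtain ⟨k, hk⟩ := cube_pj hy9 hy3
  -- `T` and `T²`
  have hT3 : pj T * (pj T * pj T) = 1 := by rw [← map_mul, ← map_mul, T3, map_one]
  have hTi : (pj T)⁻¹ = pj T * pj T := inv_eq_of_mul_eq_one_right hT3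
  have hh' : pj h * pj A * (pj h)⁻¹ = pj T ∨ pj h * pj A * (pj h)⁻¹ = (pj T)⁻¹ := by
    rw [hTi, ← map_inv, ← map_mul, ← map_mul, ← map_mul]
    rcases hh with hh | hh
    · exact Or.inl (by rw [hh])
    · exact Or.inr (by rw [hh])
  rw [← hTi] at hk
  obtain ⟨u, hu⟩ : ∃ u, u = e y0 ^ 3 := ⟨_, rfl⟩
  rw [← hu] at hk
  have key : ∃ m : PG, pj A = m * u * m⁻¹ ∨ pj A = m * u⁻¹ * m⁻¹ := by
    refine ⟨(pj h)⁻¹ * k, ?_⟩
    have e1 : ∀ B : PG, pj h * pj A * (pj h)⁻¹ = B → pj A = (pj h)⁻¹ * B * pj h := by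
      rintro B rfl
      group
    have e2 : (pj h)⁻¹ * k * u * ((pj h)⁻¹ * k)⁻¹ = (pj h)⁻¹ * (k * u * k⁻¹) * pj h := by group
    have e3 : (pj h)⁻¹ * k * u⁻¹ * ((pj h)⁻¹ * k)⁻¹ = (pj h)⁻¹ * (k * u * k⁻¹)⁻¹ * pj h := by group
    rw [e2, e3]
    rcases hh' with hh' | hh' <;> rcases hk with hk | hk
    · left; rw [e1 _ hh', hk]
    · right; rw [e1 _ hh', hk, inv_inv]
    · right; rw [e1 _ hh', hk]
    · left; rw [e1 _ hh', hk]
  obtain ⟨m, hm⟩ := key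
  obtain ⟨K, hK⟩ := QuotientGroup.mk_surjective (e.symm m)
  have hu' : e.symm u = QuotientGroup.mk (Y hc ^ 3) := by
    rw [hu, ← map_pow, MulEquiv.symm_apply_apply, hy0, QuotientGroup.mk_pow]
  rcases hm with hm | hm
  · have h2 : e.symm (pj A) = QuotientGroup.mk (K * Y hc ^ 3 * K⁻¹) := by
      rw [hm, map_mul, map_mul, map_inv, hu', ← hK]
      rfl
    rw [hxz, h2]
    exact exists_gu hc (mat_conj (mat_Y3' hc hcc))
  · have h2 : e.symm (pj A) = QuotientGroup.mk (K * Y (hc2 hc) ^ 3 * K⁻¹) := by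
      rw [hm, map_mul, map_mul, map_inv, map_inv, hu', ← hK, ← Y3_inv hc]
      rfl
    rw [hxz, h2]
    exact exists_gu (hc2 hc) (mat_conj (mat_Y3' (hc2 hc) hcc2))

end Cfsg.Agent.H521.SN.UFour
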